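import Cfsg.Agent.Lib.Helper94.SpRow.Defs4
import Cfsg.Agent.Lib.Helper70.SpRow.QA2

set_option autoImplicit false
set_option linter.unusedSectionVars false

/-! # S5789 farm (helper94), piece QP2: structure of `UU` -/

namespace Cfsg.Agent.Lib.Helper1.SpRow

open Cfsg Cfsg.Geo Matrix Cfsg.Agent.Lib.Helper94.SpRow
open scoped MatrixGroups

variable {F : Type*} [Field F]

theorem q_rat_single (F₀ : Subfield F) (j : Fin 2 ⊕ Fin 2) :
    ∀ i, (Pi.single j 1 : Fin 2 ⊕ Fin 2 → F) i ∈ F₀ := by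
  intro i
  by_cases h : i = j
  · subst h; simp [F₀.one_mem]
  · rw [Pi.single_eq_of_ne h]; exact F₀.zero_mem

theorem q_e1e2 : sympForm 2 F (e1 F) (e2 F) = 0 := by rw [sf_four]; simp [e1, e2]
theorem q_e1f2 : sympForm 2 F (e1 F) (f2 F) = 0 := by rw [sf_four]; simp [e1, f2]
theorem q_e2f1 : sympForm 2 F (e2 F) (f1 F) = 0 := by rw [sf_four]; simp [e2, f1]
theorem q_e2e1 : sympForm 2 F (e2 F) (e1 F) = 0 := by rw [sf_four]; simp [e1, e2]
theorem q_e1f1 : sympForm 2 F (e1 F) (f1 F) = -1 := by rw [sf_four]; simp [e1, f1]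
theorem q_e2f2 : sympForm 2 F (e2 F) (f2 F) = -1 := by rw [sf_four]; simp [e2, f2]

/-- shear in the second vector -/
theorem q_shear_right {u p : Fin 2 ⊕ Fin 2 → F} (h : sympForm 2 F u p = 0) (c x y z : F) :
    U3 u (p + c • u) x y z = U3 u p (x + 2 * c * y + c ^ 2 * z) (y + c * z) z := by
  have h' : sympForm 2 F u (p + c • u) = 0 := by
    rw [sf_add_right, sf_smul_right, sf_self, h]; ring
  apply gl_ext
  intro w
  rw [U3_mulVec h', U3_mulVec h]
  simp only [sf_add_right, sf_smul_right]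
  module

/-- shear in the first vector -/
theorem q_shear_left {u p : Fin 2 ⊕ Fin 2 → F} (h : sympForm 2 F u p = 0) (c x y z : F) :
    U3 (u + c • p) p x y z = U3 u p x (y + c * x) (z + 2 * c * y + c ^ 2 * x) := by
  have h' : sympForm 2 F (u + c • p) p = 0 := by
    rw [sf_add_left, sf_smul_left, sf_self, h]; ring
  apply gl_ext
  intro w
  rw [U3_mulVec h', U3_mulVec h]
  simp only [sf_add_right, sf_smul_right]
  module

theorem q_UU_congr {G : Subgroup (GL (Fin 2 ⊕ Fin 2) F)} {x y z x' y' z' : F} (h : UU G x y z)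
    (hx : x = x') (hy : y = y') (hz : z = z') : UU G x' y' z' := by
  subst hx hy hz; exact h

theorem q_UU_add {G : Subgroup (GL (Fin 2 ⊕ Fin 2) F)} {x y z x' y' z' : F} (h : UU G x y z)
    (h' : UU G x' y' z') : UU G (x + x') (y + y') (z + z') := by
  have := mul_mem h h'
  rwa [U3_mul q_e1e2] at this

/-- the move by `o1 = U3 e1 f2 0 1 0` -/
theorem q_move1 (F₀ : Subfield F) (G : Subgroup (GL (Fin 2 ⊕ Fin 2) F))
    (hHG : subfieldSubgroup F₀ (1 : GL (Fin 2 ⊕ Fin 2) F) ⊓ spGL 2 F ≤ G) {x y z : F}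
    (h : UU G x y z) : UU G (x + 2 * (-1) * y + (-1) ^ 2 * z) (y + (-1) * z) z := by
  have ho : U3 (e1 F) (f2 F) 0 1 0 ∈ G :=
    hHG (Cfsg.Agent.Lib.Helper70.SpRow.U3_rat F₀ _ _ (q_rat_single F₀ _) (q_rat_single F₀ _) 0 1 0
      F₀.zero_mem F₀.one_mem F₀.zero_mem)
  have h1 := mul_mem (mul_mem ho h) (inv_mem ho)
  rw [U3_conj (U3_mem _ _ _ _ _), U3_mulVec q_e1f2, U3_mulVec q_e1f2] at h1
  have a1 : e1 F + ((0 : F) * sympForm 2 F (e1 F) (e1 F) + 1 * sympForm 2 F (e1 F) (f2 F)) • e1 F +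
      ((1 : F) * sympForm 2 F (e1 F) (e1 F) + 0 * sympForm 2 F (e1 F) (f2 F)) • f2 F = e1 F := by
    rw [sf_self, q_e1f2]; module
  have a2 : e2 F + ((0 : F) * sympForm 2 F (e2 F) (e1 F) + 1 * sympForm 2 F (e2 F) (f2 F)) • e1 F +
      ((1 : F) * sympForm 2 F (e2 F) (e1 F) + 0 * sympForm 2 F (e2 F) (f2 F)) • f2 F
      = e2 F + (-1 : F) • e1 F := by
    rw [q_e2e1, q_e2f2]; module
  rw [a1, a2, q_shear_right q_e1e2] at h1
  exact h1

/-- the move by `o1' = U3 e2 f1 0 1 0` -/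
theorem q_move2 (F₀ : Subfield F) (G : Subgroup (GL (Fin 2 ⊕ Fin 2) F))
    (hHG : subfieldSubgroup F₀ (1 : GL (Fin 2 ⊕ Fin 2) F) ⊓ spGL 2 F ≤ G) {x y z : F}
    (h : UU G x y z) : UU G x (y + (-1) * x) (z + 2 * (-1) * y + (-1) ^ 2 * x) := by
  have ho : U3 (e2 F) (f1 F) 0 1 0 ∈ G :=
    hHG (Cfsg.Agent.Lib.Helper70.SpRow.U3_rat F₀ _ _ (q_rat_single F₀ _) (q_rat_single F₀ _) 0 1 0
      F₀.zero_mem F₀.one_mem F₀.zero_mem)
  have h1 := mul_mem (mul_mem ho h) (inv_mem ho)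
  rw [U3_conj (U3_mem _ _ _ _ _), U3_mulVec q_e2f1, U3_mulVec q_e2f1] at h1
  have a1 : e1 F + ((0 : F) * sympForm 2 F (e1 F) (e2 F) + 1 * sympForm 2 F (e1 F) (f1 F)) • e2 F +
      ((1 : F) * sympForm 2 F (e1 F) (e2 F) + 0 * sympForm 2 F (e1 F) (f1 F)) • f1 F
      = e1 F + (-1 : F) • e2 F := by
    rw [q_e1e2, q_e1f1]; module
  have a2 : e2 F + ((0 : F) * sympForm 2 F (e2 F) (e2 F) + 1 * sympForm 2 F (e2 F) (f1 F)) • e2 F +
      ((1 : F) * sympForm 2 F (e2 F) (e2 F) + 0 * sympForm 2 F (e2 F) (f1 F)) • f1 F = e2 F := by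
    rw [sf_self, q_e2f1]; module
  rw [a1, a2, q_shear_left q_e1e2] at h1
  exact h1

theorem UU_struct (h2 : (2 : F) = 0) (F₀ : Subfield F) (G : Subgroup (GL (Fin 2 ⊕ Fin 2) F))
    (hHG : subfieldSubgroup F₀ (1 : GL (Fin 2 ⊕ Fin 2) F) ⊓ spGL 2 F ≤ G) {x y z : F}
    (h : UU G x y z) : LL G x ∧ LL G z ∧ UU G 0 (x + y + z) 0 := by
  -- `(z, z, 0)`
  have hz : UU G z z 0 := q_UU_congr (q_UU_add h (q_move1 F₀ G hHG h))
    (by linear_combination (x - y) * h2) (by linear_combination (y - z) * h2)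
    (by linear_combination z * h2)
  -- `(0, x, x)`
  have h0xx : UU G 0 x x := q_UU_congr (q_UU_add h (q_move2 F₀ G hHG h))
    (by linear_combination x * h2) (by linear_combination (y - x) * h2)
    (by linear_combination (z - y) * h2)
  have hx : UU G x x 0 := q_UU_congr (q_UU_add h0xx (q_move1 F₀ G hHG h0xx))
    (by linear_combination (-x) * h2) (by ring) (by linear_combination x * h2)
  have h0zz : UU G 0 z z := q_UU_congr (q_UU_add hz (q_move2 F₀ G hHG hz))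
    (by linear_combination z * h2) (by ring) (by linear_combination (-z) * h2)
  refine ⟨hx, hz, ?_⟩
  exact q_UU_congr (q_UU_add (q_UU_add h hx) h0zz) (by linear_combination x * h2) (by ring)
    (by linear_combination z * h2)

end Cfsg.Agent.Lib.Helper1.SpRow
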