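import Cfsg.Agent.Lib.Helper1.SpRow.QP2
import Cfsg.Agent.Lib.Helper70.SpRow.QA1

set_option autoImplicit false
set_option linter.unusedSectionVars false

/-! # S5789 farm (helper94), piece QP3: the commutator identity -/

namespace Cfsg.Agent.Lib.Helper1.SpRow

open Cfsg Cfsg.Geo Matrix Cfsg.Agent.Lib.Helper94.SpRow Cfsg.Agent.Lib.Helper94
open scoped MatrixGroups

variable {F : Type*} [Field F]

/-- the permutation `e1 → e2 → f1 → f2 → e1` of the coordinates (inverse direction on indices) -/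
def q3σ : Equiv.Perm (Fin 2 ⊕ Fin 2) where
  toFun i := match i with
    | Sum.inl 0 => Sum.inr 1
    | Sum.inl 1 => Sum.inl 0
    | Sum.inr 0 => Sum.inl 1
    | Sum.inr 1 => Sum.inr 0
  invFun i := match i with
    | Sum.inr 1 => Sum.inl 0
    | Sum.inl 0 => Sum.inl 1
    | Sum.inl 1 => Sum.inr 0
    | Sum.inr 0 => Sum.inr 1
  left_inv := by rintro (i | i) <;> fin_cases i <;> rfl
  right_inv := by rintro (i | i) <;> fin_cases i <;> rfl

/-- the corresponding permutation matrix -/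
noncomputable def q3w (F : Type*) [Field F] : GL (Fin 2 ⊕ Fin 2) F :=
  (glEquiv (Fin 2 ⊕ Fin 2) F).symm (LinearEquiv.funCongrLeft F F q3σ)

theorem q3w_mulVec (v : Fin 2 ⊕ Fin 2 → F) :
    ((q3w F : GL (Fin 2 ⊕ Fin 2) F) : Matrix (Fin 2 ⊕ Fin 2) (Fin 2 ⊕ Fin 2) F) *ᵥ v = v ∘ q3σ := by
  rw [← glEquiv_apply, q3w, MulEquiv.apply_symm_apply]
  rfl

theorem q3w_mem_sp (h2 : (2 : F) = 0) : q3w F ∈ spGL 2 F := by
  rw [mem_spGL]
  intro u v
  rw [q3w_mulVec, q3w_mulVec, sf_four, sf_four]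
  show u (Sum.inl 1) * v (Sum.inr 1) + u (Sum.inr 0) * v (Sum.inl 0) - u (Sum.inr 1) * v (Sum.inl 1)
    - u (Sum.inl 0) * v (Sum.inr 0) = _
  linear_combination (u (Sum.inl 1) * v (Sum.inr 1) - u (Sum.inr 1) * v (Sum.inl 1)) * h2

theorem q3w_rat (F₀ : Subfield F) : q3w F ∈ subfieldSubgroup F₀ (1 : GL (Fin 2 ⊕ Fin 2) F) := by
  apply Cfsg.Agent.Lib.Helper70.SpRow.mem_subfield_one
  intro i j
  have h : ((q3w F : GL (Fin 2 ⊕ Fin 2) F) : Matrix (Fin 2 ⊕ Fin 2) (Fin 2 ⊕ Fin 2) F) i j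
      = (((q3w F : GL (Fin 2 ⊕ Fin 2) F) : Matrix (Fin 2 ⊕ Fin 2) (Fin 2 ⊕ Fin 2) F) *ᵥ
        Pi.single j 1) i := by simp
  rw [h, q3w_mulVec]
  exact q_rat_single F₀ j _

theorem q3w_e1 : ((q3w F : GL (Fin 2 ⊕ Fin 2) F) : Matrix (Fin 2 ⊕ Fin 2) (Fin 2 ⊕ Fin 2) F) *ᵥ e1 F
    = e2 F := by
  rw [q3w_mulVec]
  funext i
  rcases i with i | i <;> fin_cases i <;> simp [e1, e2, q3σ]

theorem q3w_e2 : ((q3w F : GL (Fin 2 ⊕ Fin 2) F) : Matrix (Fin 2 ⊕ Fin 2) (Fin 2 ⊕ Fin 2) F) *ᵥ e2 F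
    = f1 F := by
  rw [q3w_mulVec]
  funext i
  rcases i with i | i <;> fin_cases i <;> simp [e2, f1, q3σ]

theorem q_f1e1 : sympForm 2 F (f1 F) (e1 F) = 1 := by rw [sf_four]; simp [e1, f1]
theorem q_f1e2 : sympForm 2 F (f1 F) (e2 F) = 0 := by rw [sf_four]; simp [e2, f1]

theorem q3_identity (h2 : (2 : F) = 0) (a c : F) :
    U3 (e1 F) (e2 F) a a 0 * U3 (e2 F) (f1 F) c c 0 * (U3 (e1 F) (e2 F) a a 0 * U3 (e2 F) (f1 F) c c 0)
      = U3 (e1 F) (e2 F) 0 (a * c) (a * c ^ 2) := by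
  have : CharP F 2 := CharTwo.of_one_ne_zero_of_two_eq_zero one_ne_zero h2
  apply gl_ext
  intro w
  simp only [Units.val_mul, ← Matrix.mulVec_mulVec, U3_mulVec q_e1e2, U3_mulVec q_e2f1]
  simp only [sf_add_left, sf_smul_left, sf_add_right, sf_smul_right, sf_self, q_e1e2, q_e2e1, q_e2f1,
    q_f1e2, q_e1f1, q_f1e1]
  generalize sympForm 2 F w (f1 F) = a0
  generalize sympForm 2 F w (e1 F) = a1
  generalize sympForm 2 F w (e2 F) = a2
  funext i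
  simp only [Pi.add_apply, Pi.smul_apply, smul_eq_mul]
  generalize w i = wi
  generalize f1 F i = x0
  generalize e1 F i = x1
  generalize e2 F i = x2
  rw [← sub_eq_zero]
  ring_nf
  reduce_mod_char!

theorem LL_comm (h2 : (2 : F) = 0) (F₀ : Subfield F) (G : Subgroup (GL (Fin 2 ⊕ Fin 2) F))
    (hHG : subfieldSubgroup F₀ (1 : GL (Fin 2 ⊕ Fin 2) F) ⊓ spGL 2 F ≤ G) {a c : F}
    (ha : LL G a) (hc : LL G c) : UU G 0 (a * c) (a * c ^ 2) := by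
  have hw : q3w F ∈ G := hHG ⟨q3w_rat F₀, q3w_mem_sp h2⟩
  have hy2 : U3 (e2 F) (f1 F) c c 0 ∈ G := by
    have := mul_mem (mul_mem hw hc) (inv_mem hw)
    rwa [U3_conj (q3w_mem_sp h2), q3w_e1, q3w_e2] at this
  have := mul_mem (mul_mem ha hy2) (mul_mem ha hy2)
  rw [q3_identity h2] at this
  exact this

end Cfsg.Agent.Lib.Helper1.SpRow
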