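import Cfsg.Agent.Lib.Helper1.SpRow.QP2

set_option autoImplicit false
set_option linter.unusedSectionVars false

/-! # S5789 farm (helper94), piece QP5: the fourth power identity -/

namespace Cfsg.Agent.Lib.Helper1.SpRow

open Cfsg Cfsg.Geo Matrix Cfsg.Agent.Lib.Helper94.SpRow
open scoped MatrixGroups

variable {F : Type*} [Field F]

theorem q5_identity (h2 : (2 : F) = 0) (v : Fin 2 ⊕ Fin 2 → F) (α β : F)
    (hα : sympForm 2 F v (e1 F) = α) (hβ : sympForm 2 F v (e2 F) = β) :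
    tvG (v + α • e1 F) 1 * tvG (v + β • e1 F + α • e2 F + α • e1 F) 1 * (tvG v 1 *
      tvG (v + β • e1 F + α • e2 F) 1) =
      U3 (e1 F) (e2 F) (α ^ 2 * β ^ 2) (α ^ 2 + α ^ 3 * β) (α ^ 4) := by
  have : CharP F 2 := CharTwo.of_one_ne_zero_of_two_eq_zero one_ne_zero h2
  have hα' : sympForm 2 F (e1 F) v = -α := by rw [sf_swap, hα]
  have hβ' : sympForm 2 F (e2 F) v = -β := by rw [sf_swap, hβ]
  apply gl_ext
  intro w
  simp only [Units.val_mul, ← Matrix.mulVec_mulVec, tvG_mulVec, U3_mulVec q_e1e2]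
  simp only [sf_add_left, sf_smul_left, sf_add_right, sf_smul_right, sf_self, q_e1e2, q_e2e1, hα, hβ,
    hα', hβ']
  generalize sympForm 2 F w v = a0
  generalize sympForm 2 F w (e1 F) = a1
  generalize sympForm 2 F w (e2 F) = a2
  funext i
  simp only [Pi.add_apply, Pi.smul_apply, smul_eq_mul]
  generalize w i = wi
  generalize v i = vi
  generalize e1 F i = x1
  generalize e2 F i = x2
  rw [← sub_eq_zero]
  ring_nf
  reduce_mod_char!

theorem fourth_mem (h2 : (2 : F) = 0) (F₀ : Subfield F) (G : Subgroup (GL (Fin 2 ⊕ Fin 2) F))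
    (hHG : subfieldSubgroup F₀ (1 : GL (Fin 2 ⊕ Fin 2) F) ⊓ spGL 2 F ≤ G)
    (v : Fin 2 ⊕ Fin 2 → F) (hv : tvG v 1 ∈ G) : LL G ((sympForm 2 F v (e1 F)) ^ 4) := by
  set α := sympForm 2 F v (e1 F) with hα
  set β := sympForm 2 F v (e2 F) with hβ
  have hh : U3 (e1 F) (e2 F) 0 1 0 ∈ G :=
    hHG (Cfsg.Agent.Lib.Helper70.SpRow.U3_rat F₀ _ _ (q_rat_single F₀ _) (q_rat_single F₀ _) 0 1 0
      F₀.zero_mem F₀.one_mem F₀.zero_mem)
  have hk : U3 (e1 F) (e2 F) 1 0 0 ∈ G :=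
    hHG (Cfsg.Agent.Lib.Helper70.SpRow.U3_rat F₀ _ _ (q_rat_single F₀ _) (q_rat_single F₀ _) 1 0 0
      F₀.one_mem F₀.zero_mem F₀.zero_mem)
  have e1' : ((U3 (e1 F) (e2 F) 0 1 0 : GL (Fin 2 ⊕ Fin 2) F) : Matrix _ _ F) *ᵥ v
      = v + β • e1 F + α • e2 F := by
    rw [U3_mulVec q_e1e2, ← hα, ← hβ]; module
  have t1 : tvG (v + β • e1 F + α • e2 F) 1 ∈ G := by
    have := mul_mem (mul_mem hh hv) (inv_mem hh)
    rwa [tvG_conj (U3_mem _ _ _ _ _), e1'] at this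
  have e2' : ((U3 (e1 F) (e2 F) 1 0 0 : GL (Fin 2 ⊕ Fin 2) F) : Matrix _ _ F) *ᵥ v
      = v + α • e1 F := by
    rw [U3_mulVec q_e1e2, ← hα, ← hβ]; module
  have t2 : tvG (v + α • e1 F) 1 ∈ G := by
    have := mul_mem (mul_mem hk hv) (inv_mem hk)
    rwa [tvG_conj (U3_mem _ _ _ _ _), e2'] at this
  have e3' : ((U3 (e1 F) (e2 F) 1 0 0 : GL (Fin 2 ⊕ Fin 2) F) : Matrix _ _ F) *ᵥ
      (v + β • e1 F + α • e2 F) = v + β • e1 F + α • e2 F + α • e1 F := by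
    rw [U3_mulVec q_e1e2]
    simp only [sf_add_left, sf_smul_left, sf_self, q_e1e2, q_e2e1, ← hα, ← hβ]
    module
  have t3 : tvG (v + β • e1 F + α • e2 F + α • e1 F) 1 ∈ G := by
    have := mul_mem (mul_mem hk t1) (inv_mem hk)
    rwa [tvG_conj (U3_mem _ _ _ _ _), e3'] at this
  have hy2 := mul_mem (mul_mem t2 t3) (mul_mem hv t1)
  rw [q5_identity h2 v α β rfl rfl] at hy2
  exact (UU_struct h2 F₀ G hHG hy2).2.1

end Cfsg.Agent.Lib.Helper1.SpRow
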