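import Cfsg.Agent.Lib.Helper1.SpRow.QP5
import Cfsg.Agent.Lib.Helper70.SpRow.QA1
import Cfsg.Agent.Lib.Helper70.SpRow.QTR
import Cfsg.Agent.Lib.Helper45.SpSubD

set_option autoImplicit false
set_option linter.unusedSectionVars false

/-! # S5789 farm (helper94), piece QP6 -/

namespace Cfsg.Agent.Lib.Helper1.SpRow

open Cfsg Cfsg.Geo Matrix Cfsg.Agent.Lib.Helper94.SpRow
open scoped MatrixGroups

variable {F : Type*} [Field F]

theorem le_of_LL_rat [Fintype F] (h2 : (2 : F) = 0) (F₀ : Subfield F)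
    (G : Subgroup (GL (Fin 2 ⊕ Fin 2) F))
    (hHG : subfieldSubgroup F₀ (1 : GL (Fin 2 ⊕ Fin 2) F) ⊓ spGL 2 F ≤ G) (hGS : G ≤ spGL 2 F)
    (hL : ∀ x, LL G x → x ∈ F₀) : G ≤ subfieldSubgroup F₀ (1 : GL (Fin 2 ⊕ Fin 2) F) := by
  intro g hg
  apply Cfsg.Agent.Lib.Helper70.SpRow.mem_subfield_one
  have key : ∀ i j : Fin 2 ⊕ Fin 2,
      sympForm 2 F ((g : Matrix (Fin 2 ⊕ Fin 2) (Fin 2 ⊕ Fin 2) F) *ᵥ Pi.single j 1) (Pi.single i 1) ∈ F₀ := by
    intro i j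
    have ht0 : tvG (Pi.single j 1 : Fin 2 ⊕ Fin 2 → F) 1 ∈ G := by
      have := Cfsg.Agent.Lib.Helper70.SpRow.U3_rat F₀ _ _ (q_rat_single F₀ j) (q_rat_single F₀ j)
        1 0 0 F₀.one_mem F₀.zero_mem F₀.zero_mem
      rw [U3_tv] at this
      exact hHG this
    have htv : tvG ((g : Matrix (Fin 2 ⊕ Fin 2) (Fin 2 ⊕ Fin 2) F) *ᵥ Pi.single j 1) 1 ∈ G := by
      have := mul_mem (mul_mem hg ht0) (inv_mem hg)
      rwa [tvG_conj (hGS hg)] at this
    obtain ⟨w, hw, hwe⟩ := Cfsg.Agent.Lib.Helper70.SpRow.exists_rat_to_e1 h2 F₀ i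
    have htw : tvG ((w : Matrix (Fin 2 ⊕ Fin 2) (Fin 2 ⊕ Fin 2) F) *ᵥ ((g : Matrix (Fin 2 ⊕ Fin 2) (Fin 2 ⊕ Fin 2) F) *ᵥ Pi.single j 1)) 1 ∈ G := by
      have := mul_mem (mul_mem (hHG hw) htv) (inv_mem (hHG hw))
      rwa [tvG_conj hw.2] at this
    have h4 := hL _ (fourth_mem h2 F₀ G hHG _ htw)
    rw [← hwe, mem_spGL.mp hw.2] at h4
    apply Cfsg.Agent.Lib.Helper45.SpSub.sq_mem F₀ h2
    apply Cfsg.Agent.Lib.Helper45.SpSub.sq_mem F₀ h2
    rwa [← pow_mul]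
  intro i j
  have hcol : ∀ i, ((g : Matrix (Fin 2 ⊕ Fin 2) (Fin 2 ⊕ Fin 2) F) *ᵥ Pi.single j 1) i = (g : Matrix (Fin 2 ⊕ Fin 2) (Fin 2 ⊕ Fin 2) F) i j := by
    intro i
    simp
  rcases i with i | i <;> fin_cases i
  · have := key (Sum.inr 0) j
    rw [sf_four] at this
    simp only [hcol] at this
    simpa using this
  · have := key (Sum.inr 1) j
    rw [sf_four] at this
    simp only [hcol] at this
    simpa using this
  · have := key (Sum.inl 0) j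
    rw [sf_four] at this
    simp only [hcol] at this
    simpa using this
  · have := key (Sum.inl 1) j
    rw [sf_four] at this
    simp only [hcol] at this
    simpa using this

end Cfsg.Agent.Lib.Helper1.SpRow
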